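import Cfsg.Agent.H165.Tri
import Cfsg.Agent.H241.NHBase

/-!
# S4335: `TriH` from the non-adjacency facts of a sporadic row (helper555)

* `comm_of_card` : a group of order `a b`, `a < b` primes, `a ∤ b - 1`, is abelian;
* `triH_of` : the assembly.  `L`: the odd prime divisors of `N = |X|`; `B`: the primes treated with all others; `P`: further
  non-adjacent pairs.
-/

set_option autoImplicit false

namespace Cfsg.Agent.H555.Tri

open Cfsg Cfsg.Agent.H630.NH Cfsg.Agent.H165.TriRow Cfsg.Agent.H241.NH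

universe u

/-- The same proposition as `Cfsg.Agent.H383.TriRow.TriH` (repeated here to keep the imports small). -/
def TriH (X : Type u) [Group X] : Prop :=
  ∀ r q₁ q₂ : ℕ, r.Prime → q₁.Prime → q₂.Prime → r ≠ 2 → q₁ ≠ 2 → q₂ ≠ 2 → r ≠ q₁ → r ≠ q₂ → q₁ ≠ q₂ →
    r ∣ Nat.card X → q₁ ∣ Nat.card X → q₂ ∣ Nat.card X → Cond {r, q₁} X → Cond {r, q₂} X →
    (∃ (x : X) (K : Subgroup X), orderOf x = r ∧ (∀ k ∈ K, k * x = x * k) ∧
      (∀ s : ℕ, s.Prime → s ∣ Nat.card K → s = q₁ ∨ s = q₂) ∧ ¬ q₁ ∣ K.index ∧ ¬ q₂ ∣ K.index) →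
    Cond {q₁, q₂} X

/-- A group of order `a b`, `a < b` primes, `a ∤ b - 1`, is abelian. -/
theorem comm_of_card {K : Type*} [Group K] [Finite K] {a b : ℕ} (ha : a.Prime) (hb : b.Prime) (hab : a < b)
    (hd : ¬ a ∣ b - 1) (hK : Nat.card K = a * b) : IsMulCommutative K := by
  haveI : Fact a.Prime := ⟨ha⟩
  haveI : Fact b.Prime := ⟨hb⟩
  have hne : a ≠ b := hab.ne
  obtain ⟨x, hx⟩ := exists_prime_orderOf_dvd_card' (G := K) a (by rw [hK]; exact dvd_mul_right a b)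
  obtain ⟨y, hy⟩ := exists_prime_orderOf_dvd_card' (G := K) b (by rw [hK]; exact dvd_mul_left b a)
  have hxp : IsPGroup a (Subgroup.zpowers x) := by
    rw [IsPGroup.iff_card]; exact ⟨1, by rw [Nat.card_zpowers, hx, pow_one]⟩
  have hyp : IsPGroup b (Subgroup.zpowers y) := by
    rw [IsPGroup.iff_card]; exact ⟨1, by rw [Nat.card_zpowers, hy, pow_one]⟩
  obtain ⟨A, hA⟩ := hxp.exists_le_sylow
  obtain ⟨B, hB⟩ := hyp.exists_le_sylow
  have hxA : x ∈ (A : Subgroup K) := hA (Subgroup.mem_zpowers x)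
  have hyB : y ∈ (B : Subgroup K) := hB (Subgroup.mem_zpowers y)
  -- the indices
  have hcA : (A : Subgroup K).index ∣ b := by
    have h1 := (A : Subgroup K).card_mul_index
    have h2 : a ∣ Nat.card (A : Subgroup K) := by
      have := (A : Subgroup K).orderOf_dvd_natCard hxA
      rwa [hx] at this
    obtain ⟨c, hc⟩ := h2
    rw [hK, hc] at h1
    have h3 : c * (A : Subgroup K).index = b := by
      apply Nat.eq_of_mul_eq_mul_left ha.pos
      rw [← h1, mul_assoc]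
    exact ⟨c, by rw [← h3, mul_comm]⟩
  have hcB : (B : Subgroup K).index ∣ a := by
    have h1 := (B : Subgroup K).card_mul_index
    have h2 : b ∣ Nat.card (B : Subgroup K) := by
      have := (B : Subgroup K).orderOf_dvd_natCard hyB
      rwa [hy] at this
    obtain ⟨c, hc⟩ := h2
    rw [hK, hc] at h1
    have h3 : c * (B : Subgroup K).index = a := by
      apply Nat.eq_of_mul_eq_mul_left hb.pos
      rw [← mul_assoc, h1, mul_comm]
    exact ⟨c, by rw [← h3, mul_comm]⟩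
  have hnA : Nat.card (Sylow a K) = 1 := by
    have h1 : Nat.card (Sylow a K) ∣ b := (A.card_dvd_index).trans hcA
    rcases (Nat.dvd_prime hb).1 h1 with h | h
    · exact h
    · exfalso
      have h2 := card_sylow_modEq_one a K
      rw [h] at h2
      exact hd ((Nat.modEq_iff_dvd' hb.one_lt.le).1 h2.symm)
  have hnB : Nat.card (Sylow b K) = 1 := by
    have h1 : Nat.card (Sylow b K) ∣ a := (B.card_dvd_index).trans hcB
    rcases (Nat.dvd_prime ha).1 h1 with h | h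
    · exact h
    · exfalso
      have h2 := card_sylow_modEq_one b K
      rw [h] at h2
      have h3 := (Nat.modEq_iff_dvd' ha.one_lt.le).1 h2.symm
      have h4 := Nat.le_of_dvd (Nat.sub_pos_of_lt ha.one_lt) h3
      omega
  haveI : Subsingleton (Sylow a K) := (Nat.card_eq_one_iff_unique.1 hnA).1
  haveI : Subsingleton (Sylow b K) := (Nat.card_eq_one_iff_unique.1 hnB).1
  have hAn := Sylow.normal_of_subsingleton A
  have hBn := Sylow.normal_of_subsingleton B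
  have hdis : Disjoint (A : Subgroup K) (B : Subgroup K) := IsPGroup.disjoint_of_ne a b hne _ _ A.2 B.2
  have hxy : Commute x y := Subgroup.commute_of_normal_of_disjoint _ _ hAn hBn hdis x y hxA hyB
  have ho : orderOf (x * y) = Nat.card K := by
    rw [hxy.orderOf_mul_eq_mul_orderOf_of_coprime (by rw [hx, hy]; exact (Nat.coprime_primes ha hb).2 hne), hx, hy, hK]
  haveI : IsCyclic K := isCyclic_of_orderOf_eq_card (x * y) ho
  exact IsCyclic.isMulCommutative

theorem cond_of_cyc {X : Type u} [Group X] [Finite X] {a b : ℕ} (ha : a.Prime) (hb : b.Prime) (hab : a < b)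
    (hd : ¬ a ∣ b - 1) (ha' : a ∣ Nat.card X) (hb' : b ∣ Nat.card X) (ha2 : ¬ a ^ 2 ∣ Nat.card X)
    (hb2 : ¬ b ^ 2 ∣ Nat.card X) (K : Subgroup X) (hK : ∀ s : ℕ, s.Prime → s ∣ Nat.card K → s = a ∨ s = b)
    (hia : ¬ a ∣ K.index) (hib : ¬ b ∣ K.index) : Cond {a, b} X := by
  have h1 := K.card_mul_index
  have hcop : Nat.Coprime a b := (Nat.coprime_primes ha hb).2 hab.ne
  have h2 : a ∣ Nat.card K := by
    rw [← h1] at ha'
    exact (ha.dvd_mul.1 ha').resolve_right hia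
  have h3 : b ∣ Nat.card K := by
    rw [← h1] at hb'
    exact (hb.dvd_mul.1 hb').resolve_right hib
  obtain ⟨m, hm⟩ := hcop.mul_dvd_of_dvd_of_dvd h2 h3
  have hKX : Nat.card K ∣ Nat.card X := Subgroup.card_subgroup_dvd_card K
  have hm1 : m = 1 := by
    by_contra hne
    obtain ⟨s, hs, hsm⟩ := Nat.exists_prime_and_dvd hne
    have h4 : s ∣ Nat.card K := by rw [hm]; exact hsm.mul_left _
    rcases hK s hs h4 with rfl | rfl
    · apply ha2
      refine dvd_trans ?_ hKX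
      rw [hm, pow_two]
      exact mul_dvd_mul (dvd_mul_right _ _) hsm
    · apply hb2
      refine dvd_trans ?_ hKX
      rw [hm, pow_two]
      exact mul_dvd_mul (dvd_mul_left _ _) hsm
  rw [hm1, mul_one] at hm
  exact cond_of_torus ha hb K (comm_of_card ha hb hab hd hm) hia hib

/-- the numerical condition -/
def ok (N : ℕ) (A : List ℕ) (P : List (ℕ × ℕ)) : Bool :=
  A.all fun r => A.all fun a => A.all fun b => r == a || r == b || !(decide (a < b)) ||
    P.contains (r, a) || P.contains (a, r) || P.contains (r, b) || P.contains (b, r) ||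
    (N % a ^ 2 != 0 && N % b ^ 2 != 0 && (b - 1) % a != 0)

theorem ok_spec {N : ℕ} {A : List ℕ} {P : List (ℕ × ℕ)} (h : ok N A P = true) {r a b : ℕ} (hr : r ∈ A) (ha : a ∈ A)
    (hb : b ∈ A) (hra : r ≠ a) (hrb : r ≠ b) (hab : a < b) :
    (r, a) ∈ P ∨ (a, r) ∈ P ∨ (r, b) ∈ P ∨ (b, r) ∈ P ∨ (¬ a ^ 2 ∣ N ∧ ¬ b ^ 2 ∣ N ∧ ¬ a ∣ b - 1) := by
  have h1 := List.all_eq_true.1 (List.all_eq_true.1 (List.all_eq_true.1 h r hr) a ha) b hb
  simp only [Bool.or_eq_true, beq_iff_eq, List.contains_iff_mem, Bool.and_eq_true, bne_iff_ne, ne_eq,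
    Bool.not_eq_true', decide_eq_false_iff_not, not_lt, ← Nat.dvd_iff_mod_eq_zero] at h1
  rcases h1 with (((((((h1 | h1) | h1) | h1) | h1) | h1) | h1) | h1)
  · exact absurd h1 hra
  · exact absurd h1 hrb
  · exact absurd hab (not_lt.2 h1)
  · exact Or.inl h1
  · exact Or.inr (Or.inl h1)
  · exact Or.inr (Or.inr (Or.inl h1))
  · exact Or.inr (Or.inr (Or.inr (Or.inl h1)))
  · exact Or.inr (Or.inr (Or.inr (Or.inr ⟨h1.1.1, h1.1.2, h1.2⟩)))

/-- **The assembly of a `TriH` row.** -/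
theorem triH_of {X : Type u} [Group X] [Finite X] (N k : ℕ) (hN : Nat.card X = N) (L B : List ℕ)
    (P : List (ℕ × ℕ)) (hLp : ∀ q ∈ L, q.Prime) (hk : (2 * L.prod) ^ k % N = 0)
    (hB : ∀ p ∈ B, ∀ q ∈ L, p ≠ q → NC p q X) (hP : ∀ a ∈ P, NC a.1 a.2 X)
    (hT : ok N (L.filter (fun q => !B.contains q)) P = true) : TriH X := by
  subst hN
  intro r q₁ q₂ hr h₁ h₂ hr2 h12 h22 hrq₁ hrq₂ hq hdr hd₁ hd₂ hc₁ hc₂ hex
  have hrL := mem_of_dvd hLp hk hr hr2 hdr
  have h₁L := mem_of_dvd hLp hk h₁ h12 hd₁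
  have h₂L := mem_of_dvd hLp hk h₂ h22 hd₂
  by_cases hrB : r ∈ B
  · exact absurd hc₁ (hB r hrB q₁ h₁L hrq₁)
  by_cases h₁B : q₁ ∈ B
  · exact absurd hc₁ (hB q₁ h₁B r hrL hrq₁.symm).symm
  by_cases h₂B : q₂ ∈ B
  · exact absurd hc₂ (hB q₂ h₂B r hrL hrq₂.symm).symm
  have hA : ∀ p ∈ L, p ∉ B → p ∈ L.filter (fun q => !B.contains q) := by
    intro p hp hpB
    rw [List.mem_filter]
    refine ⟨hp, ?_⟩
    simpa using hpB
  have key : ∀ a b : ℕ, a.Prime → b.Prime → a ∈ L → b ∈ L → a ∉ B → b ∉ B → r ≠ a → r ≠ b → a < b →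
      a ∣ Nat.card X → b ∣ Nat.card X → Cond {r, a} X → Cond {r, b} X →
      (∃ K : Subgroup X, (∀ s : ℕ, s.Prime → s ∣ Nat.card K → s = a ∨ s = b) ∧ ¬ a ∣ K.index ∧ ¬ b ∣ K.index) →
      Cond {a, b} X := by
    intro a b ha hb haL hbL haB hbB hra hrb hab hda hdb hca hcb ⟨K, hK, hia, hib⟩
    rcases ok_spec hT (hA r hrL hrB) (hA a haL haB) (hA b hbL hbB) hra hrb hab with h | h | h | h | ⟨h1, h2, h3⟩
    · exact absurd hca (hP _ h)
    · exact absurd hca (NC.symm (hP _ h))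
    · exact absurd hcb (hP _ h)
    · exact absurd hcb (NC.symm (hP _ h))
    · exact cond_of_cyc ha hb hab h3 hda hdb h1 h2 K hK hia hib
  obtain ⟨x, K, -, -, hK, hi₁, hi₂⟩ := hex
  rcases lt_or_gt_of_ne hq with h | h
  · exact key q₁ q₂ h₁ h₂ h₁L h₂L h₁B h₂B hrq₁ hrq₂ h hd₁ hd₂ hc₁ hc₂ ⟨K, hK, hi₁, hi₂⟩
  · rw [Set.pair_comm]
    exact key q₂ q₁ h₂ h₁ h₂L h₁L h₂B h₁B hrq₂ hrq₁ h hd₂ hd₁ hc₂ hc₁
      ⟨K, fun s hs hd => (hK s hs hd).symm, hi₂, hi₁⟩

/-- transfer along an isomorphism -/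
theorem TriH.congr {X : Type u} {Y : Type*} [Group X] [Group Y] (e : X ≃* Y) (h : TriH X) : TriH Y := by
  intro r q₁ q₂ hr h₁ h₂ a b c d e' f g i j hc₁ hc₂ hex
  rw [← Nat.card_congr e.toEquiv] at g i j
  refine (h r q₁ q₂ hr h₁ h₂ a b c d e' f g i j (hc₁.congr e.symm) (hc₂.congr e.symm) ?_).congr e
  obtain ⟨x, K, hx, hxK, hK, hi₁, hi₂⟩ := hex
  refine ⟨e.symm x, K.map (e.symm : Y →* X), ?_, ?_, ?_, ?_, ?_⟩
  · rw [← hx]; exact MulEquiv.orderOf_eq e.symm x
  · rintro _ ⟨k, hk, rfl⟩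
    have h1 := congrArg e.symm (hxK k hk)
    rw [map_mul, map_mul] at h1
    exact h1
  · intro s hs hd
    apply hK s hs
    rwa [Subgroup.card_map_of_injective e.symm.injective] at hd
  · rwa [Subgroup.index_map_equiv]
  · rwa [Subgroup.index_map_equiv]

end Cfsg.Agent.H555.Tri
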