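import Cfsg.Agent.H555.Tri.Gen
import Cfsg.Agent.H865.NH.JFour

/-!
# `TriH` for `J₄` (helper555, S4335)
-/

set_option autoImplicit false

namespace Cfsg.Agent.H555.Tri.JFour

open Cfsg Cfsg.Agent.H241.NH Cfsg.Agent.H865.NH.JFour

universe u

/-- a self-centralizing prime is not adjacent to any other -/
theorem nc_self {p : ℕ} (hp : p.Prime) {N : ℕ} {X : Type u} [Group X] [Finite X] (hN : Nat.card X = N)
    (h : ∃ x : X, orderOf x = p ∧ Nat.card (Subgroup.centralizer ({x} : Set X)) = p)
    {q : ℕ} (hq : q.Prime) (hpq : p ≠ q) (hd : q ∣ N) : NC p q X := by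
  obtain ⟨x, hx, hc⟩ := h
  refine nc_of_dvd (q := q) (a := 1) (n := p) hq hpq hx (by rw [hN, pow_one]; exact hd) (dvd_of_eq hc) ?_
  rw [pow_one]
  exact fun h => hpq ((Nat.prime_dvd_prime_iff_eq hq hp).1 h).symm

theorem triH_j4' : TriH Spor.J4 := by
  have := fin
  have h23 := big (p := 23) (by norm_num) (by norm_num) fun P hP => (Cfsg.Agent.H859.BigNum.data23 hP).1
  have h29 := big (p := 29) (by norm_num) (by norm_num) fun P hP => (Cfsg.Agent.H859.BigNum.data29' hP).1
  have h31 := big (p := 31) (by norm_num) (by norm_num) fun P hP => (Cfsg.Agent.H859.BigNum.data31 hP).1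
  have h37 := big (p := 37) (by norm_num) (by norm_num) fun P hP => (Cfsg.Agent.H859.BigNum.data37 hP).1
  have h43 := big (p := 43) (by norm_num) (by norm_num) fun P hP => (Cfsg.Agent.H859.BigNum.data43 hP).1
  have e : ∀ {p : ℕ}, (∃ x : Spor.J4, orderOf x = p ∧ Nat.card (Subgroup.centralizer ({x} : Set Spor.J4)) = p) →
      ∃ x : Spor.J4, orderOf x = p ∧ Nat.card (Subgroup.centralizer ({x} : Set Spor.J4)) ∣ p := fun ⟨x, h1, h2⟩ =>
    ⟨x, h1, h2 ▸ dvd_rfl⟩
  have hL : ∀ q ∈ [3, 5, 7, 11, 23, 29, 31, 37, 43], q.Prime := by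
    intro q hq
    simp only [List.mem_cons, List.not_mem_nil, or_false] at hq
    rcases hq with rfl | rfl | rfl | rfl | rfl | rfl | rfl | rfl | rfl <;> norm_num
  have hd : ∀ q ∈ [3, 5, 7, 11, 23, 29, 31, 37, 43], q ∣ 86775571046077562880 := by
    intro q hq
    simp only [List.mem_cons, List.not_mem_nil, or_false] at hq
    rcases hq with rfl | rfl | rfl | rfl | rfl | rfl | rfl | rfl | rfl <;> norm_num
  refine triH_of 86775571046077562880 21 card [3, 5, 7, 11, 23, 29, 31, 37, 43] [3, 11, 23, 29, 31, 37, 43] []
    hL ?_ ?_ ?_ ?_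
  · norm_num
  · intro p hp q hq hpq
    have hqp := hL q hq
    have hqd := hd q hq
    simp only [List.mem_cons, List.not_mem_nil, or_false] at hp
    rcases hp with rfl | rfl | rfl | rfl | rfl | rfl | rfl
    · simp only [List.mem_cons, List.not_mem_nil, or_false] at hq
      rcases hq with rfl | rfl | rfl | rfl | rfl | rfl | rfl | rfl | rfl
      · exact absurd rfl hpq
      · exact nc_three five_seven.1 (by norm_num) (by norm_num)
      · exact nc_three five_seven.2 (by norm_num) (by norm_num)
      · exact (nc_eleven (q := 3) (a := 3) (by norm_num) (by norm_num) (by norm_num) (by norm_num)).symm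
      · exact nc_three (e h23) (by norm_num) (by norm_num)
      · exact nc_three (e h29) (by norm_num) (by norm_num)
      · exact nc_three (e h31) (by norm_num) (by norm_num)
      · exact nc_three (e h37) (by norm_num) (by norm_num)
      · exact nc_three (e h43) (by norm_num) (by norm_num)
    · simp only [List.mem_cons, List.not_mem_nil, or_false] at hq
      rcases hq with rfl | rfl | rfl | rfl | rfl | rfl | rfl | rfl | rfl
      · exact nc_eleven (a := 3) (by norm_num) (by norm_num) (by norm_num) (by norm_num)
      · exact nc_eleven (a := 1) (by norm_num) (by norm_num) (by norm_num) (by norm_num)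
      · exact nc_eleven (a := 1) (by norm_num) (by norm_num) (by norm_num) (by norm_num)
      · exact absurd rfl hpq
      · exact nc_eleven (a := 1) (by norm_num) (by norm_num) (by norm_num) (by norm_num)
      · exact nc_eleven (a := 1) (by norm_num) (by norm_num) (by norm_num) (by norm_num)
      · exact nc_eleven (a := 1) (by norm_num) (by norm_num) (by norm_num) (by norm_num)
      · exact nc_eleven (a := 1) (by norm_num) (by norm_num) (by norm_num) (by norm_num)
      · exact nc_eleven (a := 1) (by norm_num) (by norm_num) (by norm_num) (by norm_num)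
    · exact nc_self (by norm_num) card h23 hqp hpq hqd
    · exact nc_self (by norm_num) card h29 hqp hpq hqd
    · exact nc_self (by norm_num) card h31 hqp hpq hqd
    · exact nc_self (by norm_num) card h37 hqp hpq hqd
    · exact nc_self (by norm_num) card h43 hqp hpq hqd
  · intro a ha
    exact absurd ha (by simp)
  · decide

/-- **`TriH` for `J₄`** -/
theorem triH_j4 {G : Type u} [Group G] (h : Spor.IsoJ4 G) : TriH G := by
  obtain ⟨e⟩ := h
  exact triH_j4'.congr e.symm

end Cfsg.Agent.H555.Tri.JFour
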