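import Cfsg.Agent.H555.Tri.Gen
import Cfsg.Agent.H164.LyNHc
import Cfsg.Agent.H799.PB.Ly67

/-!
# `TriH` for `Ly` (helper555, S4335)
-/

set_option autoImplicit false

namespace Cfsg.Agent.H555.Tri.Ly

open Cfsg Cfsg.Agent.H241.NH Cfsg.Agent.H164.LyNH

universe u

theorem nc_67 {q : ℕ} (hq : q.Prime) (h67 : 67 ≠ q) (hd : q ∣ Nat.card Spor.Ly) : NC 67 q Spor.Ly := by
  have hfin : Finite Spor.Ly := Cfsg.Agent.Ly.Setup.finite_ly
  haveI : Fact (Nat.Prime 67) := ⟨by norm_num⟩
  haveI : Fact q.Prime := ⟨hq⟩
  obtain ⟨x, hx⟩ := exists_prime_orderOf_dvd_card' (G := Spor.Ly) 67 (by rw [cardLy]; norm_num)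
  refine nc_of_card (a := 1) hq h67 ⟨1, by rw [hx, pow_one]⟩ (by rwa [pow_one]) ?_
  rw [pow_one]
  intro h1
  obtain ⟨n, hn⟩ := (IsPGroup.iff_card (p := 67)).1 (Cfsg.Agent.H799.PB.Ly67.isPGroup_cent hx)
  rw [hn] at h1
  exact h67 ((Nat.prime_dvd_prime_iff_eq hq (by norm_num)).1 (hq.dvd_of_dvd_pow h1)).symm

theorem triH_ly' : TriH Spor.Ly := by
  have hfin : Finite Spor.Ly := Cfsg.Agent.Ly.Setup.finite_ly
  have hfive : ∀ q, q.Prime → q ≠ 2 → q ≠ 5 → q ∣ 51765179004000000 → NC 5 q Spor.Ly := fun q hq h2 h5 hd =>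
    nc_five hq h2 h5 (by rwa [cardLy])
  refine triH_of 51765179004000000 8 cardLy [3, 5, 7, 11, 31, 37, 67] [3, 5, 67] [] ?_ ?_ ?_ ?_ ?_
  · decide +kernel
  · decide +kernel
  · intro p hp q hq hpq
    simp only [List.mem_cons, List.not_mem_nil, or_false] at hp hq
    rcases hp with rfl | rfl | rfl
    · rcases hq with rfl | rfl | rfl | rfl | rfl | rfl | rfl
      · exact absurd rfl hpq
      · exact (hfive 3 (by norm_num) (by norm_num) (by norm_num) (by norm_num)).symm
      · exact nc_three_seven
      · exact nc_three_eleven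
      · exact nc_three_big (by norm_num) (by norm_num) (by norm_num) (by norm_num)
      · exact nc_three_big (by norm_num) (by norm_num) (by norm_num) (by norm_num)
      · exact nc_three_big (by norm_num) (by norm_num) (by norm_num) (by norm_num)
    · rcases hq with rfl | rfl | rfl | rfl | rfl | rfl | rfl
      · exact hfive _ (by norm_num) (by norm_num) (by norm_num) (by norm_num)
      · exact absurd rfl hpq
      · exact hfive _ (by norm_num) (by norm_num) (by norm_num) (by norm_num)
      · exact hfive _ (by norm_num) (by norm_num) (by norm_num) (by norm_num)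
      · exact hfive _ (by norm_num) (by norm_num) (by norm_num) (by norm_num)
      · exact hfive _ (by norm_num) (by norm_num) (by norm_num) (by norm_num)
      · exact hfive _ (by norm_num) (by norm_num) (by norm_num) (by norm_num)
    · rcases hq with rfl | rfl | rfl | rfl | rfl | rfl | rfl
      · exact nc_67 (by norm_num) (by norm_num) (by rw [cardLy]; norm_num)
      · exact nc_67 (by norm_num) (by norm_num) (by rw [cardLy]; norm_num)
      · exact nc_67 (by norm_num) (by norm_num) (by rw [cardLy]; norm_num)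
      · exact nc_67 (by norm_num) (by norm_num) (by rw [cardLy]; norm_num)
      · exact nc_67 (by norm_num) (by norm_num) (by rw [cardLy]; norm_num)
      · exact nc_67 (by norm_num) (by norm_num) (by rw [cardLy]; norm_num)
      · exact absurd rfl hpq
  · intro a ha; exact absurd ha (by simp)
  · decide

/-- **`TriH` for `Ly`** -/
theorem triH_ly {G : Type u} [Group G] (h : Spor.IsoLy G) : TriH G := by
  obtain ⟨e⟩ := h
  exact triH_ly'.congr e.symm

end Cfsg.Agent.H555.Tri.Ly
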